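import Cfsg.Agent.HN133.Packed

/-!
Products of dense matrices over the field with 29 elements on packed rows: a matrix is given by
rows with five bits for an entry above the eight bits of the row number (these keep apart the hashes of
the rows in the kernel), a state is the list of its packed rows.
-/

set_option autoImplicit false

namespace CfsgLib.HNAlt12

open Matrix CfsgLib.HN133

/-- `m` entries of five bits -/
def vals : ℕ → ℕ → List ℕ
  | 0, _ => []
  | m + 1, n => (n % 32) :: vals m (n / 32)

/-- the entries of a row -/
def rowVals (n : ℕ) : List ℕ := vals 133 (n / 256)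

/-- entries times rows -/
def combD : List ℕ → List ℕ → ℕ
  | v :: vs, r :: rs => v * r + combD vs rs
  | _, _ => 0

/-- a dense matrix times a state -/
def stepD (R L : List ℕ) : List ℕ := R.map fun n => red (combD (rowVals n) L)

/-- a list of entries as slots -/
def packVals : List ℕ → ℕ
  | [] => 0
  | v :: vs => v + B * packVals vs

/-- a dense matrix as a state -/
def stateD (R : List ℕ) : List ℕ := R.map fun n => packVals (rowVals n)

/-- equality of states -/
def sameD : List ℕ → List ℕ → Bool
  | [], [] => true
  | a :: as, b :: bs => Nat.beq a b && sameD as bs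
  | _, _ => false

/-- all entries are at most 28 and there are 133 rows -/
def denseOK (R : List ℕ) : Bool :=
  Nat.beq R.length 133 && R.all fun n => (rowVals n).all fun v => Nat.ble v 28

/-- the matrix of dense rows -/
def matD (R : List ℕ) : Matrix (Fin 133) (Fin 133) (ZMod 29) :=
  fun i k => (((rowVals (R.getD i 0)).getD k 0 : ℕ) : ZMod 29)

/-- the packed rows of a matrix -/
def stateOf (P : Matrix (Fin 133) (Fin 133) (ZMod 29)) : List ℕ :=
  List.ofFn fun i : Fin 133 => dig 133 fun j => if h : j < 133 then (P i ⟨j, h⟩).val else 0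

theorem length_stateOf (P : Matrix (Fin 133) (Fin 133) (ZMod 29)) :
    (stateOf P).length = 133 := by
  unfold stateOf
  exact List.length_ofFn

theorem getElem_stateOf (P : Matrix (Fin 133) (Fin 133) (ZMod 29)) (i : ℕ)
    (h : i < (stateOf P).length) :
    (stateOf P)[i] = dig 133 fun j =>
      if hj : j < 133 then (P ⟨i, length_stateOf P ▸ h⟩ ⟨j, hj⟩).val else 0 := by
  unfold stateOf
  exact List.getElem_ofFn _

theorem length_vals : ∀ m n, (vals m n).length = m
  | 0, _ => rfl
  | m + 1, n => by rw [vals, List.length_cons, length_vals m]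

theorem length_rowVals (n : ℕ) : (rowVals n).length = 133 := length_vals _ _

theorem packVals_eq : ∀ l : List ℕ, packVals l = dig l.length fun j => l.getD j 0
  | [] => rfl
  | v :: vs => by
    rw [packVals, packVals_eq vs, List.length_cons, dig]
    simp

theorem getD_le_of_all {l : List ℕ} (h : (l.all fun v => Nat.ble v 28) = true) (k : ℕ) :
    l.getD k 0 ≤ 28 := by
  rcases Nat.lt_or_ge k l.length with hk | hk
  · rw [List.getD_eq_getElem _ _ hk]
    exact Nat.le_of_ble_eq_true (List.all_eq_true.mp h _ (List.getElem_mem hk))
  · rw [List.getD_eq_default _ _ hk]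
    exact Nat.zero_le _

theorem denseOK_entry {R : List ℕ} (h : denseOK R = true) (i k : ℕ) :
    R.length = 133 ∧ (i < 133 → (rowVals (R.getD i 0)).getD k 0 ≤ 28) := by
  simp only [denseOK, Bool.and_eq_true] at h
  refine ⟨Nat.eq_of_beq_eq_true h.1, fun hi => getD_le_of_all ?_ k⟩
  rw [List.getD_eq_getElem _ _ (by rw [Nat.eq_of_beq_eq_true h.1]; exact hi)]
  exact List.all_eq_true.mp h.2 _ (List.getElem_mem _)

theorem combD_eq : ∀ (n : ℕ) (vs : List ℕ) (g : Fin n → ℕ → ℕ), vs.length = n →
    combD vs (List.ofFn fun k => dig 133 (g k)) =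
      dig 133 fun j => ∑ k : Fin n, vs.getD k 0 * g k j
  | 0, [], g, _ => by
    simp [combD, dig_zero]
  | n + 1, v :: vs, g, h => by
    rw [List.ofFn_succ, combD, combD_eq n vs (fun k => g k.succ) (by simpa using h), dig_mul,
      dig_add]
    exact dig_congr _ _ _ fun j _ => by simp [Fin.sum_univ_succ]

theorem stateD_eq {R : List ℕ} (h : denseOK R = true) : stateD R = stateOf (matD R) := by
  have hlen := (denseOK_entry h 0 0).1
  refine List.ext_getElem (by rw [stateD, List.length_map, length_stateOf, hlen]) fun i h1 h2 => ?_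
  have hi : i < 133 := length_stateOf (matD R) ▸ h2
  rw [getElem_stateOf]
  simp only [stateD, List.getElem_map]
  rw [packVals_eq, length_rowVals]
  refine dig_congr _ _ _ fun j hj => ?_
  rw [dif_pos hj]
  simp only [matD]
  rw [List.getD_eq_getElem R 0 (by omega), ZMod.val_natCast, Nat.mod_eq_of_lt]
  have := (denseOK_entry h i j).2 hi
  rw [List.getD_eq_getElem R 0 (by omega)] at this
  omega

theorem stepD_eq {R : List ℕ} (h : denseOK R = true) (P : Matrix (Fin 133) (Fin 133) (ZMod 29)) :
    stepD R (stateOf P) = stateOf (matD R * P) := by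
  have hlen := (denseOK_entry h 0 0).1
  refine List.ext_getElem (by rw [stepD, List.length_map, length_stateOf, hlen]) fun i h1 h2 => ?_
  have hi : i < 133 := length_stateOf (matD R * P) ▸ h2
  rw [getElem_stateOf]
  simp only [stepD, List.getElem_map]
  unfold stateOf
  rw [combD_eq 133 _ _ (length_rowVals _), red_dig]
  · refine dig_congr _ _ _ fun j hj => ?_
    rw [dif_pos hj, Matrix.mul_apply, ← ZMod.val_natCast, Nat.cast_sum]
    refine congrArg ZMod.val (Finset.sum_congr rfl fun k _ => ?_)
    rw [dif_pos hj, Nat.cast_mul, ZMod.natCast_zmod_val]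
    simp only [matD]
    rw [List.getD_eq_getElem R 0 (by omega)]
  · intro j
    refine le_trans (Finset.sum_le_card_nsmul _ _ (28 * 28) fun k _ => Nat.mul_le_mul ?_ ?_) (by simp)
    · have := (denseOK_entry h i k).2 hi
      rwa [List.getD_eq_getElem R 0 (by omega)] at this
    · split
      · exact Nat.le_of_lt_succ (ZMod.val_lt _)
      · exact Nat.zero_le _

theorem eq_of_sameD : ∀ {L L' : List ℕ}, sameD L L' = true → L = L'
  | [], [], _ => rfl
  | a :: as, b :: bs, h => by
    simp only [sameD, Bool.and_eq_true] at h
    rw [Nat.eq_of_beq_eq_true h.1, eq_of_sameD h.2]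
  | [], _ :: _, h => by simp [sameD] at h
  | _ :: _, [], h => by simp [sameD] at h

theorem stateOf_injective : Function.Injective stateOf := fun P Q h => by
  refine Matrix.ext fun i j => ZMod.val_injective 29 ?_
  have e := congrFun (List.ofFn_injective h) i
  have hb : ∀ (M : Matrix (Fin 133) (Fin 133) (ZMod 29)) (k : ℕ),
      (if h : k < 133 then (M i ⟨k, h⟩).val else 0) < B := fun M k => by
    split
    · exact lt_trans (ZMod.val_lt _) (by norm_num)
    · norm_num
  have := dig_inj 133 _ _ (hb P) (hb Q) e j j.isLt
  rwa [dif_pos j.isLt, dif_pos j.isLt] at this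

/-- a sparse product in blocks as a state -/
def flat (L : List (List ℕ)) : List ℕ := (List.range 133).map (get L)

theorem flat_eq {L : List (List ℕ)} {P : Matrix (Fin 133) (Fin 133) (ZMod 29)} (h : Rep L P) :
    flat L = stateOf P := by
  refine List.ext_getElem (by rw [flat, List.length_map, List.length_range, length_stateOf])
    fun i h1 h2 => ?_
  have hi : i < 133 := length_stateOf P ▸ h2
  rw [getElem_stateOf]
  simp only [flat, List.getElem_map, List.getElem_range]
  exact h ⟨i, hi⟩

/-- the identity as a state -/
def oneD : List ℕ := flat oneS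

theorem oneD_eq : oneD = stateOf 1 := flat_eq rep_oneS

end CfsgLib.HNAlt12
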