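import Cfsg.Agent.HNAlt12.Data
import Cfsg.Agent.HNAlt12.Dense

/-!
Kernel checks in the 133-dimensional representation: the conjugating element moves each three-cycle to the next.
-/

set_option autoImplicit false
set_option maxRecDepth 100000

namespace CfsgLib.HNAlt12

open CfsgLib.HN133

theorem link0 :
    sameD (stepD pack1 (stepD packC (stateD pack0))) (stateD packC) = true := by
  decide +kernel

theorem link1 :
    sameD (stepD pack2 (stepD packC (stateD pack1))) (stateD packC) = true := by
  decide +kernel

theorem link2 :
    sameD (stepD pack3 (stepD packC (stateD pack2))) (stateD packC) = true := by
  decide +kernel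

theorem link3 :
    sameD (stepD pack4 (stepD packC (stateD pack3))) (stateD packC) = true := by
  decide +kernel

theorem link4 :
    sameD (stepD pack5 (stepD packC (stateD pack4))) (stateD packC) = true := by
  decide +kernel

theorem link5 :
    sameD (stepD pack6 (stepD packC (stateD pack5))) (stateD packC) = true := by
  decide +kernel

theorem link6 :
    sameD (stepD pack7 (stepD packC (stateD pack6))) (stateD packC) = true := by
  decide +kernel

theorem link7 :
    sameD (stepD pack8 (stepD packC (stateD pack7))) (stateD packC) = true := by
  decide +kernel

theorem link8 :
    sameD (stepD pack9 (stepD packC (stateD pack8))) (stateD packC) = true := by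
  decide +kernel

theorem link9 :
    sameD (stepD pack0 (stepD packC (stateD pack9))) (stateD packC) = true := by
  decide +kernel

end CfsgLib.HNAlt12
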