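import Cfsg.Agent.HNAlt12.Data
import Cfsg.Agent.HNAlt12.Dense

/-!
Kernel checks in the 133-dimensional representation: the first three-cycle times each of the next five is an involution.
-/

set_option autoImplicit false
set_option maxRecDepth 100000

namespace CfsgLib.HNAlt12

open CfsgLib.HN133

theorem rel1 :
    sameD (stepD pack0 (stepD pack1 (stepD pack0 (stateD pack1)))) oneD = true := by
  decide +kernel

theorem rel2 :
    sameD (stepD pack0 (stepD pack2 (stepD pack0 (stateD pack2)))) oneD = true := by
  decide +kernel

theorem rel3 :
    sameD (stepD pack0 (stepD pack3 (stepD pack0 (stateD pack3)))) oneD = true := by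
  decide +kernel

theorem rel4 :
    sameD (stepD pack0 (stepD pack4 (stepD pack0 (stateD pack4)))) oneD = true := by
  decide +kernel

theorem rel5 :
    sameD (stepD pack0 (stepD pack5 (stepD pack0 (stateD pack5)))) oneD = true := by
  decide +kernel

end CfsgLib.HNAlt12
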