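import Cfsg.Agent.HN133.Data
import Cfsg.Agent.HNAlt12.Data
import Cfsg.Agent.HNAlt12.Dense

/-!
Kernel checks in the 133-dimensional representation: the entries, the two words, and the order of the first three-cycle.
-/

set_option autoImplicit false
set_option maxRecDepth 100000

namespace CfsgLib.HNAlt12

open CfsgLib.HN133

theorem denseC :
    denseOK packC = true := by
  decide +kernel

theorem dense0 :
    denseOK pack0 = true := by
  decide +kernel

theorem dense1 :
    denseOK pack1 = true := by
  decide +kernel

theorem dense2 :
    denseOK pack2 = true := by
  decide +kernel

theorem dense3 :
    denseOK pack3 = true := by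
  decide +kernel

theorem dense4 :
    denseOK pack4 = true := by
  decide +kernel

theorem dense5 :
    denseOK pack5 = true := by
  decide +kernel

theorem dense6 :
    denseOK pack6 = true := by
  decide +kernel

theorem dense7 :
    denseOK pack7 = true := by
  decide +kernel

theorem dense8 :
    denseOK pack8 = true := by
  decide +kernel

theorem dense9 :
    denseOK pack9 = true := by
  decide +kernel

theorem wordA :
    sameD (flat (runM matL wA)) (stateD pack0) = true := by
  decide +kernel

theorem wordC :
    sameD (flat (runM matL wC)) (stateD packC) = true := by
  decide +kernel

theorem wA_ne :
    sameS (runM matL wA) oneS = false := by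
  decide +kernel

theorem cube :
    sameD (stepD pack0 (stepD pack0 (stateD pack0))) oneD = true := by
  decide +kernel

end CfsgLib.HNAlt12
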