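import Cfsg.Agent.AltPres54.Carmichael
import Cfsg.Agent.HN133.Rep
import Cfsg.Agent.HNAlt12.CheckWord
import Cfsg.Agent.HNAlt12.CheckLink
import Cfsg.Agent.HNAlt12.CheckRel

/-!
An alternating group of degree 12 inside the presented Harada–Norton group, given that its
133-dimensional representation is injective.
-/

set_option autoImplicit false
set_option maxRecDepth 100000
set_option maxHeartbeats 400000

namespace CfsgLib.HNAlt12

open Cfsg.Spor Cfsg.Spor.HN CfsgLib.HN133

/-- a letter as a free group element -/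
def gensOf : ℕ → FreeGroup Gen
  | 0 => HN.x
  | 1 => HN.x⁻¹
  | 2 => HN.y
  | 3 => HN.y⁻¹
  | 4 => HN.z
  | _ => HN.t

/-- a word as an element of the presented group -/
noncomputable def el (w : List ℕ) : Cfsg.Spor.HN :=
  PresentedGroup.mk _ (w.map gensOf).prod

theorem lift_letter : ∀ k : ℕ, (FreeGroup.lift gen (gensOf k)).1 = M k
  | 0 => by simp [gensOf, gen, img, enc]
  | 1 => by
      rw [gensOf, map_inv, FreeGroup.lift_apply_of]
      show img (Gen.x, false) = M 1
      simp [img, enc]
  | 2 => by simp [gensOf, gen, img, enc]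
  | 3 => by
      rw [gensOf, map_inv, FreeGroup.lift_apply_of]
      show img (Gen.y, false) = M 3
      simp [img, enc]
  | 4 => by simp [gensOf, gen, img, enc]
  | n + 5 => by
      have h5 : M (n + 5) = M 5 := by
        cases n <;> rfl
      rw [h5, gensOf, FreeGroup.lift_apply_of]
      · simp [gen, img, enc]
      all_goals omega

theorem rep_el_val (w : List ℕ) : (rep (el w)).1 = (w.map M).prod := by
  rw [el, rep_mk]
  induction w with
  | nil => simp
  | cons k l ih => rw [List.map_cons, List.prod_cons, List.map_cons, List.prod_cons, map_mul,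
      Units.val_mul, ih, lift_letter]

/-- the matrix of the conjugating element -/
noncomputable def CM : Matrix (Fin 133) (Fin 133) (ZMod 29) := matD packC

/-- the packed rows of the three-cycles, periodic with period ten -/
def packX (k : ℕ) : List ℕ :=
  [pack0, pack1, pack2, pack3, pack4, pack5, pack6, pack7, pack8, pack9].getD (k % 10) []

/-- the matrices of the three-cycles -/
noncomputable def XM (k : ℕ) : Matrix (Fin 133) (Fin 133) (ZMod 29) := matD (packX k)

theorem denseX (k : ℕ) : denseOK (packX k) = true := by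
  have hk : k % 10 < 10 := Nat.mod_lt _ (by norm_num)
  rw [packX]
  interval_cases (k % 10)
  exacts [dense0, dense1, dense2, dense3, dense4, dense5, dense6, dense7, dense8, dense9]

/-- the conjugating element -/
noncomputable def cel : Cfsg.Spor.HN := el wC

/-- the three-cycles -/
noncomputable def xel : ℕ → Cfsg.Spor.HN
  | 0 => el wA
  | k + 1 => cel * (xel k)⁻¹ * cel⁻¹

theorem rep_word (w : List ℕ) : Rep (runM matL w) (rep (el w)).1 := by
  rw [rep_el_val]
  exact rep_runM matL w fun x _ => shape_all x

theorem cel_val : (rep cel).1 = CM := by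
  have h := eq_of_sameD wordC
  rw [flat_eq (rep_word wC), stateD_eq denseC] at h
  exact stateOf_injective h

theorem xel_zero_val : (rep (xel 0)).1 = XM 0 := by
  have h := eq_of_sameD wordA
  rw [flat_eq (rep_word wA), stateD_eq dense0] at h
  exact stateOf_injective h

theorem cube_mat : XM 0 * (XM 0 * XM 0) = 1 := by
  have h := eq_of_sameD cube
  rw [stateD_eq dense0, stepD_eq dense0, stepD_eq dense0, oneD_eq] at h
  exact stateOf_injective h

theorem link_mat (k : ℕ) : XM (k + 1) * (CM * XM k) = CM := by
  have h : sameD (stepD (packX (k + 1)) (stepD packC (stateD (packX k)))) (stateD packC)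
      = true := by
    have hk : k % 10 < 10 := Nat.mod_lt _ (by norm_num)
    rw [packX, packX, Nat.add_mod]
    interval_cases (k % 10)
    exacts [link0, link1, link2, link3, link4, link5, link6, link7, link8, link9]
  have h' := eq_of_sameD h
  rw [stateD_eq (denseX k), stepD_eq denseC, stepD_eq (denseX (k + 1)), stateD_eq denseC] at h'
  exact stateOf_injective h'

theorem rep_xel_pow : ∀ k, rep (xel k) ^ 3 = 1
  | 0 => by
    refine Units.ext ?_
    rw [Units.val_pow_eq_pow_val, xel_zero_val, pow_succ, pow_two, Units.val_one, mul_assoc,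
      cube_mat]
  | k + 1 => by
    rw [xel, map_mul, map_mul, map_inv, map_inv, conj_pow, inv_pow, rep_xel_pow k, inv_one,
      mul_one, mul_inv_cancel]

theorem xel_val : ∀ k, (rep (xel k)).1 = XM k
  | 0 => xel_zero_val
  | k + 1 => by
    have hu : rep (xel (k + 1)) * (rep cel * rep (xel k)) = rep cel := by
      rw [xel, map_mul, map_mul, map_inv, map_inv]
      generalize rep cel = c, rep (xel k) = u
      group
    have h := congrArg Units.val hu
    rw [Units.val_mul, Units.val_mul, cel_val, xel_val k] at h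
    have hc : IsUnit (CM * XM k) := by
      rw [← cel_val, ← xel_val k, ← Units.val_mul]
      exact Units.isUnit _
    exact hc.mul_right_cancel (h.trans (link_mat k).symm)

theorem rel_mat : ∀ d, 1 ≤ d → d ≤ 5 → XM 0 * (XM d * (XM 0 * XM d)) = 1 := by
  intro d h1 hd
  have h : sameD (stepD (packX 0) (stepD (packX d) (stepD (packX 0) (stateD (packX d))))) oneD
      = true := by
    interval_cases d
    exacts [rel1, rel2, rel3, rel4, rel5]
  have h' := eq_of_sameD h
  rw [stateD_eq (denseX d), stepD_eq (denseX 0), stepD_eq (denseX d), stepD_eq (denseX 0),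
    oneD_eq] at h'
  exact stateOf_injective h'

variable (hinj : Function.Injective rep)
include hinj

theorem xel_pow (k : ℕ) : xel k ^ 3 = 1 :=
  hinj (by rw [map_pow, rep_xel_pow, map_one])

theorem xel_periodic (k : ℕ) : xel (k + 10) = xel k :=
  hinj (Units.ext (by rw [xel_val, xel_val, XM, XM, packX, packX, Nat.add_mod_right]))

theorem xel_first {d : ℕ} (h1 : 1 ≤ d) (hd : d ≤ 5) : (xel 0 * xel d) ^ 2 = 1 := by
  refine hinj (Units.ext ?_)
  rw [map_pow, map_mul, map_one, Units.val_pow_eq_pow_val, Units.val_mul, xel_zero_val,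
    xel_val d, Units.val_one, pow_two, mul_assoc]
  exact rel_mat d h1 hd

omit hinj in
theorem sq_swap {G : Type*} [Group G] {a b : G} (h : (a * b) ^ 2 = 1) : (b * a) ^ 2 = 1 := by
  rw [show b * a = a⁻¹ * (a * b) * a⁻¹⁻¹ by group, conj_pow, h, mul_one, mul_inv_cancel]

theorem xel_shift {d : ℕ} (h : (xel 0 * xel d) ^ 2 = 1) :
    ∀ i, (xel i * xel (i + d)) ^ 2 = 1
  | 0 => by rwa [Nat.zero_add]
  | i + 1 => by
    have e : xel (i + 1) * xel (i + 1 + d) = cel * ((xel i)⁻¹ * (xel (i + d))⁻¹) * cel⁻¹ := by
      rw [show i + 1 + d = i + d + 1 by omega, xel, xel]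
      group
    rw [e, conj_pow, ← mul_inv_rev, inv_pow, sq_swap (xel_shift h i), inv_one, mul_one,
      mul_inv_cancel]

theorem xel_rel (i : ℕ) {d : ℕ} (h1 : 1 ≤ d) (hd : d < 10) : (xel i * xel (i + d)) ^ 2 = 1 := by
  refine xel_shift hinj ?_ i
  rcases Nat.lt_or_ge 5 d with h | h
  · have hs := xel_shift hinj (xel_first hinj (d := 10 - d) (by omega) (by omega)) d
    rw [show d + (10 - d) = 0 + 10 by omega, xel_periodic hinj] at hs
    exact sq_swap hs
  · exact xel_first hinj h1 h

theorem xel_rel' {i j : ℕ} (hi : i < 10) (hj : j < 10) (hij : i ≠ j) :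
    (xel i * xel j) ^ 2 = 1 := by
  rcases Nat.lt_or_ge i j with h | h
  · obtain ⟨d, rfl⟩ : ∃ d, j = i + d := ⟨j - i, by omega⟩
    exact xel_rel hinj i (by omega) (by omega)
  · obtain ⟨d, rfl⟩ : ∃ d, i = j + d := ⟨i - j, by omega⟩
    have ih := xel_rel hinj j (d := d) (by omega) (by omega)
    exact sq_swap ih

theorem xel_zero_ne : xel 0 ≠ 1 := fun h => by
  have e := congrArg Units.val (congrArg rep h)
  rw [map_one, Units.val_one] at e
  have hs := same_of_rep_eq (e ▸ rep_word wA) rep_oneS
  rw [wA_ne] at hs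
  exact Bool.false_ne_true hs

/-- The presented group contains an alternating group of degree 12. -/
theorem exists_alt_twelve :
    ∃ φ : alternatingGroup (Fin 12) →* Cfsg.Spor.HN, Function.Injective φ := by
  obtain ⟨φ, hφ⟩ := CfsgLib.AltPres54.exists_hom (S := (Finset.univ : Finset (Fin 12)))
    (a := 0) (b := 1) (Finset.mem_univ _) (Finset.mem_univ _) (by decide)
    (fun i : Fin 12 => xel ((i : ℕ) - 2))
    (fun i _ _ _ => xel_pow hinj _)
    (fun i _ j _ hi0 hi1 hj0 hj1 hij => by
      have hi2 : 2 ≤ (i : ℕ) := by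
        simp only [ne_eq, Fin.ext_iff, Fin.val_zero, Fin.val_one] at hi0 hi1
        omega
      have hj2 : 2 ≤ (j : ℕ) := by
        simp only [ne_eq, Fin.ext_iff, Fin.val_zero, Fin.val_one] at hj0 hj1
        omega
      exact xel_rel' hinj (by omega) (by omega) (fun h => hij (Fin.ext (by omega))))
  haveI : IsSimpleGroup (alternatingGroup (Fin 12)) := alternatingGroup.isSimpleGroup (by simp)
  let ψ : alternatingGroup (Fin 12) →* Cfsg.Spor.HN :=
    φ.comp (MulEquiv.subgroupCongr CfsgLib.AltPres54.altOn_univ).symm.toMonoidHom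
  refine ⟨ψ, (MonoidHom.ker_eq_bot_iff ψ).mp ?_⟩
  rcases (MonoidHom.normal_ker ψ).eq_bot_or_eq_top with h | h
  · exact h
  · exfalso
    refine xel_zero_ne hinj ?_
    rw [show xel 0 = xel (((2 : Fin 12) : ℕ) - 2) from rfl,
      ← hφ 2 (Finset.mem_univ _) (by decide) (by decide)]
    have hm := (h ▸ Subgroup.mem_top
      (MulEquiv.subgroupCongr CfsgLib.AltPres54.altOn_univ
        ⟨CfsgLib.AltPres54.tri 0 1 2, CfsgLib.AltPres54.tri_mem_altOn (Finset.mem_univ _)
          (Finset.mem_univ _) (Finset.mem_univ _) (by decide) (by decide)⟩) : _ ∈ ψ.ker)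
    simpa [ψ] using hm

end CfsgLib.HNAlt12
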