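import Cfsg.Agent.Eq.Def_Sporadic
import Cfsg.Agent.HNAlt12.Hom

/-!
The permutation representation of degree 1140000 of the Harada–Norton group, given that the
presented group is simple of the expected order.
-/

set_option autoImplicit false
set_option maxHeartbeats 400000

namespace CfsgLib.HNAlt12

open Equiv

theorem rep_injective (h : Cfsg.IsHN Cfsg.Spor.HN) :
    Function.Injective CfsgLib.HN133.rep := by
  haveI := h.1
  rw [← MonoidHom.ker_eq_bot_iff]
  rcases (MonoidHom.normal_ker CfsgLib.HN133.rep).eq_bot_or_eq_top with hb | ht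
  · exact hb
  · exfalso
    have hm : el [0, 0] ∈ CfsgLib.HN133.rep.ker := ht ▸ Subgroup.mem_top _
    have e := congrArg Units.val (MonoidHom.mem_ker.mp hm)
    rw [rep_el_val, Units.val_one] at e
    exact CfsgLib.HN133.prod_ne (w := [0, 0]) (w' := []) CfsgLib.HN133.xx_ne (by simpa using e)

/-- Faithful transitive action on the cosets of a subgroup of given index, on `Fin n`. -/
theorem exists_fin_action {G : Type*} [Group G] [IsSimpleGroup G] (K : Subgroup G) {n : ℕ}
    [NeZero n] (hn : K.index = n) (hn1 : n ≠ 1) :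
    ∃ ρ : G →* Perm (Fin n), Function.Injective ρ ∧ (∀ i : Fin n, ∃ g, ρ g 0 = i) ∧
      ∀ g, ρ g 0 = 0 ↔ g ∈ K := by
  haveI : Finite (G ⧸ K) := Nat.finite_of_card_ne_zero fun h => NeZero.ne n (hn.symm.trans h)
  let e₀ : G ⧸ K ≃ Fin n := Finite.equivFinOfCardEq hn
  let e : G ⧸ K ≃ Fin n := e₀.trans (swap (e₀ (QuotientGroup.mk 1)) 0)
  have he : e (QuotientGroup.mk 1) = 0 := by simp [e]
  let ρ : G →* Perm (Fin n) := e.permCongrHom.toMonoidHom.comp (MulAction.toPermHom G (G ⧸ K))
  have hρ : ∀ g, ρ g 0 = e (QuotientGroup.mk g) := fun g => by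
    show e (g • e.symm 0) = _
    rw [← he, Equiv.symm_apply_apply, MulAction.Quotient.smul_mk, smul_eq_mul, mul_one]
  have hfix : ∀ g, ρ g 0 = 0 ↔ g ∈ K := fun g => by
    rw [hρ, ← he, e.injective.eq_iff, QuotientGroup.eq]
    simp
  refine ⟨ρ, ?_, fun i => ?_, hfix⟩
  · rw [← MonoidHom.ker_eq_bot_iff]
    rcases (MonoidHom.normal_ker ρ).eq_bot_or_eq_top with hb | ht
    · exact hb
    · exfalso
      have hK : K = ⊤ := eq_top_iff.mpr fun g _ => (hfix g).mp (by
        rw [MonoidHom.mem_ker.mp (ht ▸ Subgroup.mem_top g)]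
        rfl)
      exact hn1 (by rw [← hn, hK, Subgroup.index_top])
  · obtain ⟨g, hg⟩ := Quotient.exists_rep (e.symm i)
    exact ⟨g, by rw [hρ, show (QuotientGroup.mk g : G ⧸ K) = e.symm i from hg, Equiv.apply_symm_apply]⟩

/-- The Harada–Norton group on 1140000 points with stabiliser `A₁₂`. -/
theorem exists_perm_group (h : Cfsg.IsHN Cfsg.Spor.HN) :
    ∃ H : Subgroup (Perm (Fin 1140000)), Cfsg.IsHN H ∧
      MulAction.IsPretransitive H (Fin 1140000) ∧
      Nonempty (MulAction.stabilizer H (0 : Fin 1140000) ≃* alternatingGroup (Fin 12)) := by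
  obtain ⟨φ, hφ⟩ := exists_alt_twelve (rep_injective h)
  haveI := h.1
  haveI : Finite Cfsg.Spor.HN := Nat.finite_of_card_ne_zero (by rw [h.2]; norm_num)
  have hcardA : Nat.card (alternatingGroup (Fin 12)) = 239500800 := by
    rw [nat_card_alternatingGroup, Nat.card_fin]
    rfl
  have hK : Nat.card φ.range = 239500800 := by
    rw [Nat.card_congr (MonoidHom.ofInjective hφ).symm.toEquiv, hcardA]
  have hidx : φ.range.index = 1140000 := by
    have := φ.range.card_mul_index
    rw [hK, h.2] at this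
    omega
  obtain ⟨ρ, hρ, htrans, hfix⟩ := exists_fin_action φ.range hidx (by norm_num)
  let E : Cfsg.Spor.HN ≃* ρ.range := MonoidHom.ofInjective hρ
  refine ⟨ρ.range, ⟨?_, ?_⟩, ⟨fun i j => ?_⟩, ⟨?_⟩⟩
  · haveI : Nontrivial ρ.range := E.toEquiv.symm.nontrivial
    exact IsSimpleGroup.isSimpleGroup_of_surjective E.toMonoidHom E.surjective
  · rw [← Nat.card_congr E.toEquiv, h.2]
  · obtain ⟨g, hg⟩ := htrans i
    obtain ⟨g', hg'⟩ := htrans j
    refine ⟨E g' * (E g)⁻¹, ?_⟩
    show (ρ g' * (ρ g)⁻¹) i = j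
    rw [Perm.mul_apply, ← hg, Perm.inv_def, Equiv.symm_apply_apply, hg']
  · have heq : φ.range.map E.toMonoidHom = MulAction.stabilizer ρ.range (0 : Fin 1140000) := by
      ext s
      obtain ⟨g, rfl⟩ := E.surjective s
      rw [MulAction.mem_stabilizer_iff, show E g • (0 : Fin 1140000) = ρ g 0 from rfl, hfix]
      exact Subgroup.mem_map_iff_mem (f := E.toMonoidHom) E.injective
    exact ((MulEquiv.subgroupCongr heq).symm.trans (E.subgroupMap φ.range).symm).trans
      (MonoidHom.ofInjective hφ).symm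

end CfsgLib.HNAlt12
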